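import Mathlib
import Cfsg.Agent.Lib.A6C.Mo1

/-! The model `Aut A₆`: the Sylow 2-subgroup. -/

set_option autoImplicit false
set_option maxRecDepth 100000

namespace H80.A6C

open Subgroup H69 H36.SW

namespace Mo2

theorem mem_cl {s : Set S6} {L : List S6} (h0 : 1 ∈ L) (h1 : ∀ a ∈ s, a ∈ L)
    (h2 : ∀ a ∈ L, a⁻¹ ∈ L ∧ ∀ b ∈ L, a * b ∈ L) {d : S6} (hd : d ∈ closure s) : d ∈ L := by
  induction hd using closure_induction with
  | mem x hx => exact h1 x hx
  | one => exact h0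
  | mul x y _ _ hx hy => exact (h2 x hx).2 y hy
  | inv x _ hx => exact (h2 x hx).1

def LD : List S6 := [1, pz, pv1, pz * pv1, pv2, pz * pv2, pv1 * pv2, pv2 * pv1]

theorem memD {d : S6} : d ∈ pD ↔ d ∈ LD := by
  refine ⟨mem_cl (by decide +kernel) (by rintro _ (rfl | rfl) <;> decide +kernel) (by decide +kernel), fun h => ?_⟩
  have a : pv1 ∈ pD := subset_closure (Or.inl rfl)
  have b : pv2 ∈ pD := subset_closure (Or.inr rfl)
  have c : pz ∈ pD := (show pv1 * pv2 * (pv1 * pv2) = pz by decide +kernel) ▸ mul_mem (mul_mem a b) (mul_mem a b)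
  simp only [LD, List.mem_cons, List.not_mem_nil, or_false] at h
  rcases h with rfl | rfl | rfl | rfl | rfl | rfl | rfl | rfl
  exacts [one_mem _, c, a, mul_mem c a, b, mul_mem c b, mul_mem a b, mul_mem b a]

/-- the even permutations as elements of `A₆` -/
def ez : A6 := ⟨pz, Equiv.Perm.mem_alternatingGroup.2 (by decide +kernel)⟩
def e1 : A6 := ⟨pv1, Equiv.Perm.mem_alternatingGroup.2 (by decide +kernel)⟩
def e2 : A6 := ⟨pv2, Equiv.Perm.mem_alternatingGroup.2 (by decide +kernel)⟩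
def y1 : A6 := ⟨py1, Equiv.Perm.mem_alternatingGroup.2 (by decide +kernel)⟩
def y2 : A6 := ⟨py2, Equiv.Perm.mem_alternatingGroup.2 (by decide +kernel)⟩

theorem im {x : X6} {V : Subgroup S6} (g : A6) (h : x * io g * x⁻¹ ∈ V.map io) : (x g).1 ∈ V := by
  obtain ⟨d, hd, e⟩ := h
  rw [cj_io] at e
  rwa [← io_inj e]

theorem rel (x : X6) {a b c d : A6} (h : a * b = c * d) : (x a).1 * (x b).1 = (x c).1 * (x d).1 := by
  rw [← coe_mul, ← coe_mul, ← map_mul, ← map_mul, h]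

theorem ne1 (x : X6) {a : A6} (h : a ≠ 1) : (x a).1 ≠ 1 := fun e =>
  h (x.map_eq_one_iff.1 (Subtype.ext e))

theorem cube (x : X6) {a : A6} (h : a * a * a = 1) : x a * x a * x a = 1 := by
  rw [← map_mul, ← map_mul, h, map_one]

theorem of_y1 {x : X6} (h : ¬ ∀ i, (x y1).1 i ≠ i) : x ∈ Y6 := by
  have c : y1 * y1 * y1 = 1 := by decide +kernel
  have n : y1 ≠ 1 := by decide +kernel
  refine mem_Y6.2 (H44.SA.Six.pind_of x (H44.SA.Six.ord3 c n) (iff_of_true ?_ ?_))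
  · exact card_support_eq_three_iff.1 (by decide +kernel)
  · exact ((H44.SA.Six.d1 _ (cube x c)).resolve_left fun e => ne1 x n (congrArg Subtype.val e)).resolve_right h

section
open H44.SA.Six

theorem all_p (σ : S6) : enc σ ∈ EV ++ OD := by
  have := (enc_all σ).1
  split_ifs at this
  exacts [List.mem_append_left _ this, List.mem_append_right _ this]

theorem encL : [1, pz, pv1, pz * pv1].map enc = [181896, 181441, 180762, 180307] ∧
    [1, pz, pv2, pz * pv2].map enc = [181896, 181441, 153217, 152776] ∧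
    LD.map enc = [181896, 181441, 180762, 180307, 153217, 152776, 152083, 151642] ∧ enc pu = 153224 ∧
    enc (pz * pu) = 152769 ∧ enc pz = 181441 ∧ enc pv1 = 180762 ∧ enc pv2 = 153217 ∧
    [pv2, pz * pv2].map enc = [153217, 152776] ∧ [pv1, pz * pv1].map enc = [180762, 180307] := by
  decide +kernel

theorem mem_enc {L : List S6} {p : S6} (h : enc p ∈ L.map enc) : p ∈ L := by
  obtain ⟨q, hq, e⟩ := List.mem_map.1 h
  exact enc_inj.1 e ▸ hq

theorem c1 : ∀ y ∈ EV ++ OD, mv y = 6 → mu (mu y y) y = 181896 → mu y 153224 ≠ mu 153224 y ∧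
    ∀ a ∈ [181896, 181441, 180762, 180307], a ≠ 181896 → ∀ b ∈ [181896, 181441, 180762, 180307], mu y a ≠ mu b y := by
  decide +kernel

theorem c2 : ∀ y ∈ EV ++ OD, mv y = 3 →
    ∀ a ∈ [181896, 181441, 153217, 152776], a ≠ 181896 → ∀ b ∈ [181896, 181441, 153217, 152776], mu y a ≠ mu b y := by
  decide +kernel

theorem c3 : ∀ p ∈ EV ++ OD, ∀ a ∈ [181896, 181441, 180762, 180307, 153217, 152776, 152083, 151642],
    mu p 180762 = mu a p → ∀ b ∈ [181896, 181441, 180762, 180307, 153217, 152776, 152083, 151642],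
    mu p 153217 = mu b p → p ∈ [181896, 181441, 180762, 180307, 153217, 152776, 152083, 151642] ∨
      mu p 153224 ∈ [181896, 181441, 180762, 180307, 153217, 152776, 152083, 151642] := by
  decide +kernel

theorem c5 : ∀ q ∈ EV ++ OD, ∀ a ∈ [153217, 152776], mu q a = mu a q → ∀ b ∈ [180762, 180307],
    mu q b = mu b q → q = 181896 ∨ q = 181441 ∨ q = 153224 ∨ q = 152769 := by
  decide +kernel

theorem k1 (y : S6) (h : ∀ i, y i ≠ i) (h3 : y * y * y = 1) : y * pu ≠ pu * y ∧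
    ∀ a ∈ [1, pz, pv1, pz * pv1], a ≠ 1 → ∀ b ∈ [1, pz, pv1, pz * pv1], y * a ≠ b * y := by
  obtain ⟨a1, a2⟩ := c1 _ (all_p y) (by
    rw [← (enc_all y).2, Finset.eq_univ_of_forall fun i => Equiv.Perm.mem_support.2 (h i)]; rfl)
    (by rw [← enc_mul, ← enc_mul, h3, enc_one])
  rw [← encL.2.2.2.1, ← enc_mul, ← enc_mul] at a1
  rw [← encL.1] at a2
  refine ⟨fun e => a1 (congrArg enc e), fun a ha n b hb e => a2 _ (List.mem_map_of_mem ha)
    (fun f => n (enc_inj.1 (f.trans enc_one.symm))) _ (List.mem_map_of_mem hb) ?_⟩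
  rw [← enc_mul, ← enc_mul, e]

theorem k2 (y : S6) (h : y.support.card = 3) :
    ∀ a ∈ [1, pz, pv2, pz * pv2], a ≠ 1 → ∀ b ∈ [1, pz, pv2, pz * pv2], y * a ≠ b * y := by
  have a2 := c2 _ (all_p y) ((enc_all y).2 ▸ h)
  rw [← encL.2.1] at a2
  refine fun a ha n b hb e => a2 _ (List.mem_map_of_mem ha)
    (fun f => n (enc_inj.1 (f.trans enc_one.symm))) _ (List.mem_map_of_mem hb) ?_
  rw [← enc_mul, ← enc_mul, e]

theorem k3 (p : S6) (h1 : p * pv1 * p⁻¹ ∈ LD) (h2 : p * pv2 * p⁻¹ ∈ LD) : p ∈ LD ∨ p * pu ∈ LD := by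
  have a := c3 _ (all_p p)
  rw [← encL.2.2.1, ← encL.2.2.2.1, ← encL.2.2.2.2.2.2.1, ← encL.2.2.2.2.2.2.2.1] at a
  have := a _ (List.mem_map_of_mem h1) (by rw [← enc_mul, ← enc_mul, inv_mul_cancel_right]) _
    (List.mem_map_of_mem h2) (by rw [← enc_mul, ← enc_mul, inv_mul_cancel_right])
  rw [← enc_mul] at this
  exact this.imp mem_enc mem_enc

theorem k5 (q : S6) : ∀ a ∈ [pv2, pz * pv2], q * a = a * q → ∀ b ∈ [pv1, pz * pv1], q * b = b * q →
    q = 1 ∨ q = pz ∨ q = pu ∨ q = pz * pu := by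
  intro a ha e b hb f
  have k := c5 _ (all_p q)
  rw [← encL.2.2.2.2.2.2.2.2.1, ← encL.2.2.2.2.2.2.2.2.2, ← encL.2.2.2.1, ← encL.2.2.2.2.1,
    ← encL.2.2.2.2.2.1, ← enc_one] at k
  simpa only [enc_inj] using k _ (List.mem_map_of_mem ha) (by rw [← enc_mul, ← enc_mul, e]) _
    (List.mem_map_of_mem hb) (by rw [← enc_mul, ← enc_mul, f])

end

theorem k4 : ∀ a ∈ LD, ∀ b ∈ LD, a * a = 1 → b * b = 1 → a * b * (a * b) ≠ 1 → a * b * (a * b) = pz ∧
    (a ∈ [pv1, pz * pv1] ∨ a = pv2 ∨ a = pz * pv2) ∧ (b ∈ [pv2, pz * pv2] ∨ b = pv1 ∨ b = pz * pv1) := by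
  decide +kernel

open H44.SA.Six in
theorem k6 : ∀ s ∈ OD, mu s s = 181896 → ∃ n ∈ EV, mu n n = 181896 ∧ mu (mu n s) n ≠ s ∧
    mu (mu s (mu (mu n s) n)) (mu s (mu (mu n s) n)) = 181896 := by
  decide +kernel

open H44.SA.Six in
theorem odd {p : S6} (hp : Equiv.Perm.sign p ≠ 1) (h2 : p * p = 1) :
    ∃ n : S6, Equiv.Perm.sign n = 1 ∧ n * p * n⁻¹ ≠ p ∧ p * (n * p * n⁻¹) * (p * (n * p * n⁻¹)) = 1 := by
  have m := (enc_all p).1
  rw [if_neg hp] at m
  obtain ⟨n, hn, a, b, c⟩ := k6 _ m (by rw [← enc_mul, h2, enc_one])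
  obtain ⟨x, rfl⟩ := ex_enc hn
  simp only [E, ← enc_mul, ← enc_one, ne_eq, enc_inj] at a b c
  refine ⟨x.1, Equiv.Perm.mem_alternatingGroup.1 x.2, ?_⟩
  rw [inv_eq_of_mul_eq_one_left a]
  exact ⟨b, c⟩

end Mo2

open Mo2

theorem mem_pD {d : S6} : d ∈ pD ↔ d = 1 ∨ d = pz ∨ d = pv1 ∨ d = pz * pv1 ∨ d = pv2 ∨ d = pz * pv2 ∨
    d = pv1 * pv2 ∨ d = pv2 * pv1 := by
  simp only [memD, LD, List.mem_cons, List.not_mem_nil, or_false]

theorem sylD : IsSylowIn 2 (pD.map io) J6 := by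
  haveI : Fact (Nat.Prime 2) := ⟨Nat.prime_two⟩
  have c : Nat.card pD = 8 := by
    have : (pD : Set S6) = ↑LD.toFinset := Set.ext fun d => by simpa using memD
    rw [← SetLike.coe_sort_coe, this, Nat.card_coe_set_eq, Set.ncard_coe_finset]
    decide +kernel
  have le : pD ≤ A6 := (closure_le _).2 (by rintro _ (rfl | rfl); exacts [e1.2, e2.2])
  have r := H1.card_mul_relIndex_of_le le
  rw [c, H44.SA.Six.card_A6] at r
  exact (isSylowIn_of_not_dvd_relIndex (IsPGroup.of_card (n := 3) c) le (by omega)).map io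

/-- the normaliser of `V1` -/
theorem nV1 {x : X6} (h1 : x * io pz * x⁻¹ ∈ (closure {pz, pv1} : Subgroup S6).map io)
    (h2 : x * io pv1 * x⁻¹ ∈ (closure {pz, pv1} : Subgroup S6).map io) : x ∈ Y6 := by
  have m : ∀ {d}, d ∈ (closure {pz, pv1} : Subgroup S6) → d ∈ [1, pz, pv1, pz * pv1] :=
    mem_cl (by decide +kernel) (by rintro _ (rfl | rfl) <;> decide +kernel) (by decide +kernel)
  refine of_y1 fun h => (k1 _ h (congrArg Subtype.val (cube x (a := y1) (by decide +kernel)))).2 _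
    (m (im ez h1)) (ne1 x (by decide +kernel)) _ (m (im e1 h2)) (rel x (by decide +kernel))

/-- the normaliser of `V2` -/
theorem nV2 {x : X6} (h1 : x * io pz * x⁻¹ ∈ (closure {pz, pv2} : Subgroup S6).map io)
    (h2 : x * io pv2 * x⁻¹ ∈ (closure {pz, pv2} : Subgroup S6).map io) : x ∈ Y6 := by
  have m : ∀ {d}, d ∈ (closure {pz, pv2} : Subgroup S6) → d ∈ [1, pz, pv2, pz * pv2] :=
    mem_cl (by decide +kernel) (by rintro _ (rfl | rfl) <;> decide +kernel) (by decide +kernel)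
  refine mem_Y6.2 (H44.SA.Six.pind_of x (x := y2) (H44.SA.Six.ord3 (by decide +kernel) (by decide +kernel))
    (iff_of_false (fun h => absurd h.card_support (by decide +kernel)) fun h => ?_))
  exact k2 _ h.card_support _ (m (im ez h1)) (ne1 x (by decide +kernel)) _ (m (im e2 h2))
    (rel x (by decide +kernel))

theorem nD0 {x : X6} (hx : x ∈ Y6) (h1 : x * io pv1 * x⁻¹ ∈ pD.map io) (h2 : x * io pv2 * x⁻¹ ∈ pD.map io) :
    ∃ d ∈ pD, x = io d ∨ x = io (d * pu) := by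
  obtain ⟨p, rfl⟩ := hx
  rw [← map_inv, ← map_mul, ← map_mul, mem_map_iff_mem io_inj, memD] at h1 h2
  rcases k3 p h1 h2 with h | h
  · exact ⟨p, memD.2 h, Or.inl rfl⟩
  · exact ⟨_, memD.2 h, Or.inr (by rw [mul_assoc, show pu * pu = 1 by decide +kernel, mul_one])⟩

theorem nD1 {x : X6} (hx : x ∉ Y6) (h1 : x * io pv1 * x⁻¹ ∈ pD.map io) (h2 : x * io pv2 * x⁻¹ ∈ pD.map io) :
    (x * io pv1 * x⁻¹ = io pv2 ∨ x * io pv1 * x⁻¹ = io (pz * pv2)) ∧
    (x * io pv2 * x⁻¹ = io pv1 ∨ x * io pv2 * x⁻¹ = io (pz * pv1)) ∧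
    x * io pu * x⁻¹ = io (pz * pu) := by
  have sq : ∀ a : A6, a * a = 1 → (x a).1 * (x a).1 = 1 := fun a h => by
    rw [← coe_mul, ← map_mul, h, map_one, coe_one]
  have ez' : (x e1).1 * (x e2).1 * ((x e1).1 * (x e2).1) = (x ez).1 := by
    rw [← coe_mul, ← coe_mul, ← map_mul, ← map_mul, show e1 * e2 * (e1 * e2) = ez by decide +kernel]
  obtain ⟨a, b, c⟩ := k4 _ (memD.1 (im e1 h1)) _ (memD.1 (im e2 h2)) (sq _ (by decide +kernel))
    (sq _ (by decide +kernel)) (ez' ▸ ne1 x (by decide +kernel))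
  rw [ez'] at a
  have c1 : x * io pv1 * x⁻¹ = io (x e1) := cj_io x e1
  have c2 : x * io pv2 * x⁻¹ = io (x e2) := cj_io x e2
  have c3 : x * io pz * x⁻¹ = io pz := (cj_io x ez).trans (congrArg io a)
  have cl : ∀ {v d : S6}, d ∈ [v, pz * v] → io pz ∈ (closure {pz, v} : Subgroup S6).map io ∧
      io d ∈ (closure {pz, v} : Subgroup S6).map io := fun {v d} h => by
    have m1 : pz ∈ (closure {pz, v} : Subgroup S6) := subset_closure (Or.inl rfl)
    have m2 : v ∈ (closure {pz, v} : Subgroup S6) := subset_closure (Or.inr rfl)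
    refine ⟨mem_map_of_mem _ m1, mem_map_of_mem _ ?_⟩
    simp only [List.mem_cons, List.not_mem_nil, or_false] at h
    rcases h with rfl | rfl
    exacts [m2, mul_mem m1 m2]
  replace b := b.resolve_left fun h => hx (nV1 (c3.symm ▸ (cl h).1) (c1.symm ▸ (cl h).2))
  replace c := c.resolve_left fun h => hx (nV2 (c3.symm ▸ (cl h).1) (c2.symm ▸ (cl h).2))
  refine ⟨b.imp (fun e => c1.trans (congrArg io e)) fun e => c1.trans (congrArg io e),
    c.imp (fun e => c2.trans (congrArg io e)) fun e => c2.trans (congrArg io e), ?_⟩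
  obtain ⟨q, hq⟩ := nY.conj_mem _ (io_Y pu) x
  have cm : ∀ g : A6, pu * g.1 = g.1 * pu → q * (x g).1 = (x g).1 * q := fun g h => io_inj (by
    rw [map_mul, map_mul, hq, ← cj_io, conj_mul, conj_mul, ← map_mul, ← map_mul, h])
  have nq : Equiv.Perm.sign q ≠ 1 := fun e => by
    have := nJ.conj_mem _ (hq ▸ io_J.2 e) x⁻¹
    rw [show x⁻¹ * (x * io pu * x⁻¹) * x⁻¹⁻¹ = io pu by group, io_J] at this
    exact absurd this (by decide +kernel)
  rw [← hq]
  rcases k5 q _ (by simpa using b) (cm e1 (by decide +kernel)) _ (by simpa using c)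
    (cm e2 (by decide +kernel)) with rfl | rfl | rfl | rfl
  · exact absurd (map_one _) nq
  · exact absurd (by decide +kernel) nq
  · exact absurd (of_y1 fun h => (k1 _ h (congrArg Subtype.val (cube x (a := y1) (by decide +kernel)))).1
      (cm y1 (by decide +kernel)).symm) hx
  · rfl

theorem jf6 : JF J6 := by
  haveI : Fact (Nat.Prime 2) := ⟨Nat.prime_two⟩
  have z2 : io pz * io pz = 1 := by rw [← map_mul, show pz * pz = 1 by decide +kernel, map_one]
  have z1 : io pz ≠ 1 := fun e => absurd (io_inj (e.trans (map_one io).symm)) (by decide +kernel)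
  refine ⟨nJ, ⟨io pz, io_J.2 (by decide +kernel), z2, z1⟩, sq6, out6, fun x hx h2 => ?_⟩
  by_cases hY : x ∈ Y6
  · obtain ⟨p, rfl⟩ := hY
    obtain ⟨n, a, b, c⟩ := odd (mt io_J.2 hx) (io_inj (by rw [map_mul, h2, map_one]))
    refine ⟨io n, io_J.2 a, fun e => b (io_inj ?_), ?_⟩
    · rw [map_mul, map_mul, map_inv, e]
    · simp only [← map_inv, ← map_mul]
      rw [c, map_one]
  haveI := nJ
  haveI := nY
  obtain ⟨S, hS, xS⟩ := exists_isSylowIn_le (P2.of_sq h2).zpowers (le_sup_right : _ ≤ J6 ⊔ zpowers x)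
  have hR := hS.inf_normal le_sup_left (by rw [normalizer_eq_top]; exact le_top)
  obtain ⟨j, hj, e⟩ := hR.conj sylD
  have xN : x ∈ 𝐍(S ⊓ J6) := inf_normalizer_le_normalizer_inf
    ⟨le_normalizer (xS (mem_zpowers x)), by rw [normalizer_eq_top]; trivial⟩
  obtain ⟨y, hy⟩ : ∃ y, j * x * j⁻¹ = y := ⟨_, rfl⟩
  have yN : y ∈ 𝐍(pD.map io) := by rw [← e, ← cj_normalizer, ← hy]; exact cj_mem j xN
  have y2 : y * y = 1 := hy ▸ cjsq h2 j
  have yY : y ∉ Y6 := fun h => hY (by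
    have := nY.conj_mem _ h j⁻¹
    rwa [← hy, show j⁻¹ * (j * x * j⁻¹) * j⁻¹⁻¹ = x by group] at this)
  obtain ⟨a, ha, ea⟩ : ∃ a ∈ [pv2, pz * pv2], y * io pv1 * y⁻¹ = io a := by
    rcases (nD1 yY (conj_mem_of_mem_normalizer yN (mem_map_of_mem _ (subset_closure (Or.inl rfl))))
      (conj_mem_of_mem_normalizer yN (mem_map_of_mem _ (subset_closure (Or.inr rfl))))).1 with h | h
    exacts [⟨_, by simp, h⟩, ⟨_, by simp, h⟩]
  have k : ∀ a ∈ [pv2, pz * pv2], Equiv.Perm.sign (a * pv1) = 1 ∧ a * pv1 * (a * pv1) = pz ∧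
      (a * pv1)⁻¹ = pv1 * a := by decide +kernel
  obtain ⟨k1, k2, k3⟩ := k a ha
  have eb : y * io a * y⁻¹ = io pv1 := by
    rw [← ea]
    calc _ = (y * y) * io pv1 * (y * y)⁻¹ := by group
      _ = _ := by rw [y2]; group
  have en : io (a * pv1) * y * (io (a * pv1))⁻¹ = io pz * y := by
    have : y * (io (a * pv1))⁻¹ * y⁻¹ = io (a * pv1) := by
      rw [← map_inv, k3, map_mul, ← conj_mul, ea, eb, map_mul]
    rw [← k2, map_mul io (a * pv1)]
    nth_rewrite 4 [← this]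
    group
  refine ⟨j⁻¹ * io (a * pv1) * j, mul_mem (mul_mem (inv_mem hj) (io_J.2 k1)) hj, fun f => z1 ?_, ?_⟩
  · have : io (a * pv1) * y * (io (a * pv1))⁻¹ = y := by
      rw [← hy]
      conv_rhs => rw [← f]
      group
    rw [en] at this
    exact mul_eq_right.1 this
  · rw [← conj_eq_one_iff (a := j)]
    calc _ = y * (io (a * pv1) * y * (io (a * pv1))⁻¹) * (y * (io (a * pv1) * y * (io (a * pv1))⁻¹)) := by
          rw [← hy]; group
      _ = y * (io pz * (y * y) * io pz) * y := by rw [en]; group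
      _ = 1 := by rw [y2, mul_one, z2, mul_one, y2]

end H80.A6C
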