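import Mathlib
import Cfsg.Agent.Lib.A6C.Cv
import Cfsg.Agent.Lib.A6C.Mo2

/-! The local frame. -/

set_option autoImplicit false

namespace H80.A6C

open Subgroup H69 H36.SW

variable {G : Type*} [Group G] [Finite G] {A E : Subgroup G} {α : G → X6} {t : G}

theorem H0.frame (h : H0 J6 E A α t) : ∃ F : Lf G, F.t = t ∧ Cf F E A α := by
  have c := h.cov
  have HN : centralizer {t} ≤ 𝐍(A) := fun g hg => h.HN (mem_centralizer_singleton_iff.1 hg)
  have AH : A ≤ centralizer {t} := fun a ha => mem_centralizer_singleton_iff.2 (h.tA a ha)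
  obtain ⟨T, hT, hQ⟩ : ∃ T, IsSylowIn 2 T (centralizer {t}) ∧ ∀ x ∈ T, x ∈ A → α x ∈ pD.map io := by
    obtain ⟨T, hT⟩ := exists_isSylowIn 2 (centralizer ({t} : Set G))
    obtain ⟨j, jJ, hj⟩ := sylD.exists_cj_le (c.isP_im (E := T ⊓ A) (hT.isP.to_le inf_le_left)) (fun x hx => by
      obtain ⟨e, he, -, rfl⟩ := c.mem_im.1 hx
      exact c.mem e he.2)
    obtain ⟨a, ha, rfl⟩ := c.onto j jJ
    refine ⟨T ^ᶜ a, hT.cj_of_mem (AH ha), fun x hx xA => ?_⟩
    obtain ⟨y, hy, rfl⟩ := mem_cj'.1 hx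
    have yA : y ∈ A := (A.mul_mem_cancel_left ha).1 ((A.mul_mem_cancel_right (inv_mem ha)).1 xA)
    rw [c.conj (le_normalizer ha) (le_normalizer yA)]
    exact hj (cj_mem _ (c.mem_im.2 ⟨y, ⟨hy, yA⟩, le_normalizer yA, rfl⟩))
  have TN : T ≤ 𝐍(A) := hT.le.trans HN
  have Tt : ∀ x ∈ T, x * t = t * x := fun x hx => mem_centralizer_singleton_iff.1 (hT.le hx)
  have T2 : ∀ x ∈ T, P2 x := fun x hx => .of_mem hT.isP hx
  have tT : t ∈ T := hT.le_of_le_normalizer (P2.of_sq h.tt).zpowers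
    (zpowers_le.2 (mem_centralizer_singleton_iff.2 rfl))
    (le_normalizer_of_le_centralizer fun x hx => by
      rintro _ ⟨k, rfl⟩
      exact ((show Commute x t from Tt x hx).zpow_right k).eq.symm) (mem_zpowers t)
  obtain ⟨P, hP, -⟩ := c.exists_lift sylD.le sylD.isP
  have PT : P = T ⊓ A := (hT.inf_normal AH HN).max P (fun x hx => (hP x).2 ⟨hx.2, T2 x hx.1, hQ x hx.1 hx.2⟩)
    (fun x hx => ((hP x).1 hx).1) (isP_of_P2 fun x hx => ((hP x).1 hx).2.1)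
  obtain ⟨v1, a1, e1, s1⟩ := c.lifti (j := io pv1) (io_J.2 (by decide))
    (by rw [← map_mul, show pv1 * pv1 = 1 by decide, map_one])
  obtain ⟨v2, a2, e2, s2⟩ := c.lifti (j := io pv2) (io_J.2 (by decide))
    (by rw [← map_mul, show pv2 * pv2 = 1 by decide, map_one])
  have v1T : v1 ∈ T := (PT.le ((hP _).2 ⟨a1, .of_sq s1, pv1, subset_closure (by simp), e1.symm⟩)).1
  have v2T : v2 ∈ T := (PT.le ((hP _).2 ⟨a2, .of_sq s2, pv2, subset_closure (by simp), e2.symm⟩)).1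
  have DT : closure ({v1, v2} : Set G) ≤ T ⊓ A := (closure_le _).2 (by
    rintro _ (rfl | rfl)
    exacts [⟨v1T, a1⟩, ⟨v2T, a2⟩])
  have lift : ∀ d ∈ pD, ∃ y ∈ closure ({v1, v2} : Set G), α y = io d := fun d hd => by
    refine c.of_closure (s := io '' {pv1, pv2}) (fun x hx => le_normalizer (DT hx).2) ?_ ?_
    · rintro _ ⟨_, rfl | rfl, rfl⟩
      exacts [⟨v1, subset_closure (by simp), e1⟩, ⟨v2, subset_closure (by simp), e2⟩]
    · rw [← MonoidHom.map_closure]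
      exact ⟨d, hd, rfl⟩
  have eD : closure ({v1, v2} : Set G) = T ⊓ A := le_antisymm DT fun x hx => by
    obtain ⟨d, hd, e⟩ := hQ x hx.1 hx.2
    obtain ⟨y, hy, e'⟩ := lift d hd
    rwa [c.uniq hx.2 (DT hy).2 (T2 x hx.1) (T2 y (DT hy).1) (e.symm.trans e'.symm)]
  obtain ⟨z, hz⟩ : ∃ z, v1 * v2 * v1 * v2 = z := ⟨_, rfl⟩
  have zA : z ∈ A := hz ▸ mul_mem (mul_mem (mul_mem a1 a2) a1) a2
  have zT : z ∈ T := hz ▸ mul_mem (mul_mem (mul_mem v1T v2T) v1T) v2T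
  have ez : α z = io pz := by
    rw [← hz, c.mul' (mul_mem (mul_mem a1 a2) a1) a2, c.mul' (mul_mem a1 a2) a1, c.mul' a1 a2, e1, e2,
      ← map_mul, ← map_mul, ← map_mul, show pv1 * pv2 * pv1 * pv2 = pz by decide]
  have ne1 : ∀ {p : S6}, p ≠ 1 → io p ≠ 1 := fun hp e => hp (io_inj (e.trans (map_one io).symm))
  have n1 : ∀ x ∈ T, α x * io pv1 * (α x)⁻¹ ∈ pD.map io := fun x hx => by
    rw [← e1, ← c.conj (TN hx) (le_normalizer a1)]
    exact hQ _ (mul_mem (mul_mem hx v1T) (inv_mem hx)) (conj_mem_of_mem_normalizer (TN hx) a1)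
  have n2 : ∀ x ∈ T, α x * io pv2 * (α x)⁻¹ ∈ pD.map io := fun x hx => by
    rw [← e2, ← c.conj (TN hx) (le_normalizer a2)]
    exact hQ _ (mul_mem (mul_mem hx v2T) (inv_mem hx)) (conj_mem_of_mem_normalizer (TN hx) a2)
  obtain ⟨f, fT, af, hf⟩ : ∃ f ∈ T, (f = 1 ∨ α f = io pu) ∧ ∀ x ∈ T, α x = io pu → α f = io pu := by
    by_cases hx : ∃ x ∈ T, α x = io pu
    · obtain ⟨x, hx, e⟩ := hx
      exact ⟨x, hx, Or.inr e, fun _ _ _ => e⟩
    · exact ⟨1, one_mem _, Or.inl rfl, fun x h1 h2 => absurd ⟨x, h1, h2⟩ hx⟩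
  have fc : ∀ {v : G} {p : S6}, v ∈ A → v * v = 1 → α v = io p → pu * p = p * pu → f * v = v * f :=
    fun ha s e k => af.elim (fun e' => by rw [e', one_mul, mul_one]) fun e' =>
      c.comm_lift (TN fT) ha (.of_sq s) (by rw [e', e, ← map_mul, ← map_mul, k])
  have D0 : closure ({v1, v2} : Set G) ≤ T ⊓ 𝐂(A) ⊔ closure ({v1, v2, f} : Set G) :=
    (Subgroup.closure_mono (by rintro _ (rfl | rfl) <;> simp)).trans le_sup_right
  have f0 : f ∈ T ⊓ 𝐂(A) ⊔ closure ({v1, v2, f} : Set G) := mem_sup_right (subset_closure (by simp))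
  have h0 : ∀ x ∈ T, x ∈ T ⊓ 𝐂(A) ⊔ closure ({v1, v2, f} : Set G) ↔ α x ∈ Y6 := fun x hx => by
    constructor
    · intro m
      refine (c.mem_pre.1 ((sup_le (fun y hy => c.mem_pre.2 ⟨TN hy.1, c.cen hy.2 ▸ one_mem _⟩)
        ((closure_le _).2 ?_) : T ⊓ 𝐂(A) ⊔ closure ({v1, v2, f} : Set G) ≤ c.pre Y6) m)).2
      rintro _ (rfl | rfl | rfl)
      · exact c.mem_pre.2 ⟨TN v1T, e1 ▸ io_Y _⟩
      · exact c.mem_pre.2 ⟨TN v2T, e2 ▸ io_Y _⟩
      · exact c.mem_pre.2 ⟨TN fT, af.elim (fun e => by rw [e, c.one]; exact one_mem _) fun e => e ▸ io_Y _⟩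
    · intro m
      have fin : ∀ y ∈ T, y ∈ T ⊓ 𝐂(A) ⊔ closure ({v1, v2, f} : Set G) → α y = α x →
          x ∈ T ⊓ 𝐂(A) ⊔ closure ({v1, v2, f} : Set G) := fun y hy m' e => by
        rw [← mul_inv_cancel_left y x]
        exact mul_mem m' (mem_sup_left ⟨T.mul_mem (T.inv_mem hy) hx, c.inv_mul_mem (TN hy) (TN hx) e⟩)
      obtain ⟨d, hd, e⟩ := nD0 m (n1 x hx) (n2 x hx)
      obtain ⟨y, hy, ey⟩ := lift d hd
      have yT := (DT hy).1
      rcases e with e | e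
      · exact fin y yT (D0 hy) (ey.trans e.symm)
      · have ef := hf _ (mul_mem (inv_mem yT) hx) (by
          rw [c.mul _ (inv_mem (TN yT)) _ (TN hx), c.inv (TN yT), ey, e, map_mul, inv_mul_cancel_left])
        exact fin _ (mul_mem yT fT) (mul_mem (D0 hy) f0) (by
          rw [c.mul _ (TN yT) _ (TN fT), ey, ef, e, map_mul])
  have out : ∀ x ∈ T, x ∉ T ⊓ 𝐂(A) ⊔ closure ({v1, v2, f} : Set G) → α x ∉ Y6 :=
    fun x hx m k => m ((h0 x hx).2 k)
  have zv : ∀ {v : G} {p : S6}, v ∈ A → α v = io p → α (z * v) = io (pz * p) := fun ha e => by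
    rw [c.mul' zA ha, ez, e, map_mul]
  have zf : α f = io pu → α (z * f) = io (pz * pu) := fun e => by
    rw [c.mul _ (TN zT) _ (TN fT), ez, e, map_mul]
  refine ⟨{
    T := T, R := T ⊓ 𝐂(A), t := t, z := z, v1 := v1, v2 := v2, f := f
    syl := hT, tt := h.tt, t1 := h.t1
    zz := c.eq_one (mul_mem zA zA) (T2 _ (mul_mem zT zT)) (by
      rw [zv zA ez, show pz * pz = 1 by decide, map_one])
    z1 := fun e => ne1 (p := pz) (by decide) (by rw [← ez, e, c.one])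
    v11 := s1, v22 := s2, hz := hz, v1T := v1T, v2T := v2T, fT := fT
    RT := inf_le_left
    tR := ⟨tT, h.tA⟩
    zR := fun m => ne1 (p := pz) (by decide) (ez ▸ c.cen m.2)
    cyc := h.cyc _ inf_le_right (hT.isP.to_le inf_le_left)
    Rn := le_normalizer_inf le_normalizer (le_normalizer_centralizer TN)
    Dn := eD ▸ le_normalizer_inf le_normalizer TN
    Rv1 := fun r hr => (hr.2 v1 a1).symm
    Rv2 := fun r hr => (hr.2 v2 a2).symm
    fv1 := fc a1 s1 e1 (by decide)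
    fv2 := fc a2 s2 e2 (by decide)
    ff := ⟨mul_mem fT fT, (c.ker _ (TN (mul_mem fT fT))).1 (af.elim (fun e => by rw [e, mul_one, c.one])
      fun e => by rw [c.mul _ (TN fT) _ (TN fT), e, ← map_mul, show pu * pu = 1 by decide, map_one])⟩
    hf := af.imp_right fun (e : α f = io pu) => ⟨fun m => ne1 (p := pu) (by decide) (e ▸ c.cen m.2),
      fun m => ne1 (p := pz * pu) (by decide) (zf e ▸ c.cen m.2)⟩
    idx := fun x hx y hy mx my => (h0 _ (mul_mem hx hy)).2 (by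
      rw [c.mul _ (TN hx) _ (TN hy)]; exact idxY (out x hx mx) (out y hy my))
    sw1 := fun x hx m => (nD1 (out x hx m) (n1 x hx) (n2 x hx)).1.imp
      (fun e => c.conj_eq (TN hx) a1 a2 (T2 _ v1T) (T2 _ v2T) (by rw [e1, e2, e]))
      fun e => c.conj_eq (TN hx) a1 (mul_mem zA a2) (T2 _ v1T) (T2 _ (mul_mem zT v2T))
        (by rw [e1, zv a2 e2, e])
    sw2 := fun x hx m => (nD1 (out x hx m) (n1 x hx) (n2 x hx)).2.1.imp
      (fun e => c.conj_eq (TN hx) a2 a1 (T2 _ v2T) (T2 _ v1T) (by rw [e1, e2, e]))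
      fun e => c.conj_eq (TN hx) a2 (mul_mem zA a1) (T2 _ v2T) (T2 _ (mul_mem zT v1T))
        (by rw [e2, zv a1 e1, e])
    swf := fun x hx m f1 => by
      have e := af.resolve_left f1
      have m1 := mul_mem (mul_mem hx fT) (inv_mem hx)
      have m2 := mul_mem zT fT
      refine ⟨T.mul_mem m1 (T.inv_mem m2), (c.ker _ (TN (mul_mem m1 (inv_mem m2)))).1 ?_⟩
      rw [c.mul _ (TN m1) _ (inv_mem (TN m2)), c.inv (TN m2), c.conj (TN hx) (TN fT), zf e, e,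
        (nD1 (out x hx m) (n1 x hx) (n2 x hx)).2.2, mul_inv_cancel] }, rfl,
    h, rfl, a1, a2, e1, e2, ez, af, h0⟩

end H80.A6C
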