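import Mathlib
import Cfsg.Agent.Lib.A6C.Cv
import Cfsg.Agent.Lib.A6C.Mo2

/-! Normalisers of the two elementary abelian subgroups. -/

set_option autoImplicit false

namespace H80.A6C

open Subgroup H69 H36.SW

variable {G : Type*} [Group G] [Finite G]

variable {A E : Subgroup G} {α : G → X6} {t : G}

namespace FB1

theorem exO (h : H1 J6 E A α t) : ∃ O : Subgroup G, (∀ o, o ∈ O ↔ o ∈ 𝐂(A) ∧ o * t = t * o ∧ Odd (orderOf o)) ∧
    ∀ k ∈ 𝐂(A), k * t = t * k → k ∈ O ∨ k * t ∈ O := by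
  obtain ⟨O, h1, h2⟩ := H25.A7.exists_odd (W := zpowers t) (C := 𝐂(A) ⊓ centralizer {t})
    ⟨zpowers_le.2 ⟨h.tA, mem_centralizer_singleton_iff.2 rfl⟩, (P2.of_sq h.tt).zpowers,
      fun R r1 r2 r3 => le_antisymm (fun r hr => (mem_zp h.tt).2 (h.k2 r (r2 hr).1
        (mem_centralizer_singleton_iff.1 (r2 hr).2) (P2.of_mem r3 hr))) r1⟩
    (zpowers_le.2 fun k hk => mem_centralizer_singleton_iff.1 hk.2)
  refine ⟨O, fun o => ?_, fun k hk c => ?_⟩
  · rw [h1, mem_inf, mem_centralizer_singleton_iff, and_assoc]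
  · obtain ⟨w, hw, o, ho, e⟩ := h2 k ⟨hk, mem_centralizer_singleton_iff.2 c⟩
    rcases (mem_zp h.tt).1 hw with rfl | rfl
    · exact Or.inl (by rwa [e, one_mul])
    · exact Or.inr (by rwa [c, e, ← mul_assoc, h.tt, one_mul])

theorem mem8 {X : Type*} [Group X] {p q r x : X} (pp : p * p = 1) (qq : q * q = 1) (rr : r * r = 1)
    (pq : Commute q p) (pr : Commute r p) (qr : Commute r q) (hx : x ∈ closure ({p, q, r} : Set X)) :
    ∃ a b c, (a = 1 ∨ a = p) ∧ (b = 1 ∨ b = q) ∧ (c = 1 ∨ c = r) ∧ x = a * b * c := by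
  suffices k : ∃ a b c : ℕ, x = p ^ a * q ^ b * r ^ c by
    obtain ⟨a, b, c, e⟩ := k
    exact ⟨_, _, _, (mem_zp pp).1 (npow_mem_zpowers p a), (mem_zp qq).1 (npow_mem_zpowers q b),
      (mem_zp rr).1 (npow_mem_zpowers r c), e⟩
  have m : ∀ x ∈ ({p, q, r} : Set X), ∃ a b c : ℕ, x = p ^ a * q ^ b * r ^ c := by
    rintro _ (rfl | rfl | rfl)
    exacts [⟨1, 0, 0, by simp⟩, ⟨0, 1, 0, by simp⟩, ⟨0, 0, 1, by simp⟩]
  induction hx using closure_induction'' with
  | mem x hx => exact m x hx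
  | inv_mem x hx =>
    rw [inv_eq_of_mul_eq_one_right (by rcases hx with rfl | rfl | rfl <;> assumption : x * x = 1)]
    exact m x hx
  | one => exact ⟨0, 0, 0, by simp⟩
  | mul x y _ _ h1 h2 =>
    obtain ⟨a, b, c, rfl⟩ := h1
    obtain ⟨a', b', c', rfl⟩ := h2
    refine ⟨a + a', b + b', c + c', ?_⟩
    rw [pow_add, pow_add, pow_add,
      ((pr.pow_pow c a').mul_right (qr.pow_pow c b')).mul_mul_mul_comm,
      (pq.pow_pow b a').mul_mul_mul_comm]

end FB1

theorem H1.not_cj (h : H1 J6 E A α t) {g s : G} (c : g * t = t * g) (cs : s * t = t * s) (s2 : s * s = 1)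
    (gY : α g ∈ Y6) (sY : α s ∈ Y6) : g * s * g⁻¹ ≠ s * t := by
  have nN : ∀ {x}, x * t = t * x → x ∈ 𝐍(A) := fun e => h.HN e
  have tA : t ∉ A := fun m => h.t1 ((P2.of_sq h.tt).eq_one (h.cov.odd' m h.tA))
  have key : ∀ g, g * t = t * g → α g ∈ J6 → g * s * g⁻¹ ≠ s * t := by
    intro g c m e
    obtain ⟨O, h1, h2⟩ := FB1.exO h
    obtain ⟨a, ha, ea⟩ := h.cov.onto _ m
    have hk := h.cov.inv_mul_mem (le_normalizer ha) (nN c) ea
    obtain ⟨o, ho, eo⟩ : ∃ o ∈ O, a * o * s * (a * o)⁻¹ = s * t := by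
      rcases h2 _ hk (Commute.mul_left (Commute.inv_left (h.tA a ha)) c) with m | m
      · exact ⟨_, m, by rwa [mul_inv_cancel_left]⟩
      · refine ⟨_, m, ?_⟩
        calc a * (a⁻¹ * g * t) * s * (a * (a⁻¹ * g * t))⁻¹ = g * (t * s) * t⁻¹ * g⁻¹ := by group
          _ = g * s * g⁻¹ := by rw [← cs]; group
          _ = _ := e
    have so : s⁻¹ * o * s ∈ O := by
      obtain ⟨o1, o2, o3⟩ := (h1 o).1 ho
      refine (h1 _).2 ⟨conj_mem_of_mem_normalizer' (normalizer_le_normalizer_centralizer A (nN cs)) o1,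
        Commute.mul_left (Commute.mul_left (Commute.inv_left cs) o2) cs, ?_⟩
      rwa [H9.orderOf_conj' s o]
    have mo := mul_mem so (inv_mem ho)
    obtain ⟨o1, o2, o3⟩ := (h1 _).1 mo
    have ma : s⁻¹ * a * s * a⁻¹ ∈ A := mul_mem (conj_mem_of_mem_normalizer' (nN cs) ha) (inv_mem ha)
    have et : t = s⁻¹ * a * s * a⁻¹ * (s⁻¹ * o * s * o⁻¹) := by
      calc t = s⁻¹ * (s * t) := by group
        _ = s⁻¹ * a * s * ((s⁻¹ * o * s * o⁻¹) * a⁻¹) := by rw [← eo]; group
        _ = _ := by rw [← o1 _ (inv_mem ha)]; group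
    have mc : s⁻¹ * a * s * a⁻¹ ∈ 𝐂(A) := (𝐂(A).mul_mem_cancel_right o1).1 (et ▸ h.tA)
    have cm : Commute (s⁻¹ * a * s * a⁻¹) (s⁻¹ * o * s * o⁻¹) := o1 _ ma
    have := ((h.cov.odd' ma mc).mul o3).of_dvd_nat cm.orderOf_mul_dvd_mul_orderOf
    rw [← et] at this
    exact h.t1 ((P2.of_sq h.tt).eq_one this)
  by_cases m : α g ∈ J6
  · exact key g c m
  by_cases m' : α s ∈ J6
  · intro e
    obtain ⟨a, ha, k, hk, a2, k2, -, rfl⟩ := dec_inner h.cov (nN cs) s2 m'
    have kt : k * t = t * k := by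
      apply mul_right_cancel (b := a)
      rw [mul_assoc, ← h.tA a ha, ← mul_assoc, cs, mul_assoc]
    have gk : g * k * g⁻¹ = k := by
      rcases h.k2 k hk kt (P2.of_sq k2) with rfl | rfl
      · group
      · rw [c, mul_inv_cancel_right]
    have e1 : g * a * g⁻¹ = a * t := by
      apply mul_left_cancel (a := k)
      calc k * (g * a * g⁻¹) = g * k * g⁻¹ * (g * a * g⁻¹) := by rw [gk]
        _ = _ := by rw [← mul_assoc k, ← e]; group
    exact tA ((A.mul_mem_cancel_left ha).1 (e1 ▸ conj_mem_of_mem_normalizer (nN c) ha))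
  · intro e
    refine key (g * s) (Commute.mul_left c cs) ?_ (by rw [← e]; group)
    rw [h.cov.mul _ (nN c) _ (nN cs)]
    obtain ⟨p, hp⟩ := gY
    obtain ⟨q, hq⟩ := sY
    rw [← hp, io_J] at m
    rw [← hq, io_J] at m'
    rw [← hp, ← hq, ← map_mul, io_J, map_mul, (Int.units_eq_one_or _).resolve_left m,
      (Int.units_eq_one_or _).resolve_left m']
    rfl

namespace FB1

omit [Finite G] in
theorem el {s : Set G} (h2 : ∀ x ∈ s, x * x = 1) (hc : ∀ x ∈ s, ∀ y ∈ s, x * y = y * x) :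
    IsPGroup 2 (closure s) := by
  have := isMulCommutative_closure hc
  refine isP_of_P2 fun x hx => ?_
  induction hx using closure_induction with
  | mem x hx => exact .of_sq (h2 x hx)
  | one => exact .of_sq (mul_one 1)
  | mul x y hx hy h1 h2 => exact h1.mul h2 (setLike_mul_comm hx hy)
  | inv x _ h1 => exact h1.inv

/-- the facts on permutations -/
structure PF (pv pw : S6) : Prop where
  vv : pv * pv = 1
  ww : pw * pw = 1
  vz : pv * pz = pz * pv
  wz : pw * pz = pz * pw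
  wv : pw * pv = pv * pw
  sv : Equiv.Perm.sign pv = 1
  sw : Equiv.Perm.sign pw ≠ 1
  c1 : (pz * pw).support.card ≠ pw.support.card
  c2 : (pv * pw).support.card ≠ pw.support.card
  c3 : (pz * pv * pw).support.card ≠ pw.support.card

theorem pf {pv pw : S6} (hp : (pv = pv1 ∧ pw = pu) ∨ (pv = pv2 ∧ pw = pz * pu)) : PF pv pw := by
  rcases hp with ⟨rfl, rfl⟩ | ⟨rfl, rfl⟩ <;> constructor <;> decide

end FB1

/-- `(pv, pw) = (pv1, pu)` or `(pv2, pz pu)` -/
theorem H1.nW (h : H1 J6 E A α t) {z v w : G} {pv pw : S6} (zA : z ∈ A) (vA : v ∈ A) (zz : z * z = 1)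
    (vv : v * v = 1) (ww : w * w = 1) (wt : w * t = t * w) (az : α z = io pz) (av : α v = io pv)
    (aw : α w = io pw) (hp : (pv = pv1 ∧ pw = pu) ∨ (pv = pv2 ∧ pw = pz * pu)) :
    (∀ x ∈ closure ({t, z, v, w} : Set G), x ∈ A → x = 1 ∨ x = z ∨ x = v ∨ x = z * v) ∧
    ∀ g, g * t = t * g → g ∈ 𝐍(closure ({t, z, v, w} : Set G)) →
      g * w = w * g ∧ g ∈ 𝐍(closure ({z, v} : Set G)) := by
  have c := h.cov
  have f := FB1.pf hp
  have sz : Equiv.Perm.sign pz = 1 := by decide
  have mz : z ∈ closure ({t, z, v, w} : Set G) := subset_closure (by simp)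
  have mv : v ∈ closure ({t, z, v, w} : Set G) := subset_closure (by simp)
  have mw : w ∈ closure ({t, z, v, w} : Set G) := subset_closure (by simp)
  have zN := le_normalizer zA
  have vN := le_normalizer vA
  have wN := h.HN wt
  have vz : v * z = z * v := c.comm_lift vN zA (.of_sq zz) (by rw [av, az, ← map_mul, ← map_mul, f.vz])
  have wz : w * z = z * w := c.comm_lift wN zA (.of_sq zz) (by rw [aw, az, ← map_mul, ← map_mul, f.wz])
  have wv : w * v = v * w := c.comm_lift wN vA (.of_sq vv) (by rw [aw, av, ← map_mul, ← map_mul, f.wv])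
  have zt : z * t = t * z := h.tA z zA
  have vt : v * t = t * v := h.tA v vA
  have hT : IsPGroup 2 (closure ({t, z, v, w} : Set G)) := FB1.el
    (by rintro _ (rfl | rfl | rfl | rfl); exacts [h.tt, zz, vv, ww])
    (by rintro _ (rfl | rfl | rfl | rfl) _ (rfl | rfl | rfl | rfl) <;>
      first | rfl | assumption | (symm; assumption))
  have pre : closure ({t, z, v, w} : Set G) ≤ c.pre ((closure {pz, pv, pw}).map io) := (closure_le _).2 (by
    rintro _ (rfl | rfl | rfl | rfl)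
    · exact c.mem_pre.2 ⟨h.HN rfl, c.cen h.tA ▸ one_mem _⟩
    · exact c.mem_pre.2 ⟨zN, _, subset_closure (by simp), az.symm⟩
    · exact c.mem_pre.2 ⟨vN, _, subset_closure (by simp), av.symm⟩
    · exact c.mem_pre.2 ⟨wN, _, subset_closure (by simp), aw.symm⟩)
  have m8 : ∀ x ∈ closure ({t, z, v, w} : Set G), ∃ a b d, (a = 1 ∨ a = pz) ∧ (b = 1 ∨ b = pv) ∧
      (d = 1 ∨ d = pw) ∧ α x = io (a * b * d) := fun x hx => by
    obtain ⟨y, hy, e⟩ := (c.mem_pre.1 (pre hx)).2
    obtain ⟨a, b, d, ha, hb, hd, rfl⟩ := FB1.mem8 (by decide) f.vv f.ww f.vz f.wz f.wv hy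
    exact ⟨a, b, d, ha, hb, hd, e.symm⟩
  have ev : ∀ {a b : S6}, a = 1 ∨ a = pz → b = 1 ∨ b = pv → Equiv.Perm.sign (a * b) = 1 := fun ha hb => by
    rcases ha with rfl | rfl <;> rcases hb with rfl | rfl <;> simp [sz, f.sv]
  have h1 : ∀ x ∈ closure ({t, z, v, w} : Set G), α x ∈ J6 →
      α x = 1 ∨ α x = α z ∨ α x = α v ∨ α x = α z * α v := fun x hx hJ => by
    obtain ⟨a, b, d, ha, hb, hd, e⟩ := m8 x hx
    rw [e] at hJ ⊢
    rw [io_J, map_mul, ev ha hb, one_mul] at hJ
    obtain rfl : d = 1 := hd.resolve_right fun k => f.sw (k ▸ hJ)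
    rw [az, av]
    rcases ha with rfl | rfl <;> rcases hb with rfl | rfl <;> simp
  have A1 : ∀ x ∈ closure ({t, z, v, w} : Set G), x ∈ A → x = 1 ∨ x = z ∨ x = v ∨ x = z * v :=
    fun x hx xA => by
      have x2 := P2.of_mem hT hx
      rcases h1 _ hx (c.mem x xA) with e | e | e | e
      · exact .inl (c.eq_one xA x2 e)
      · exact .inr (.inl (c.uniq xA zA x2 (P2.of_mem hT mz) e))
      · exact .inr (.inr (.inl (c.uniq xA vA x2 (P2.of_mem hT mv) e)))
      · exact .inr (.inr (.inr (c.uniq xA (mul_mem zA vA) x2 (P2.of_mem hT (mul_mem mz mv))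
          (e.trans (c.mul' zA vA).symm))))
  refine ⟨A1, fun g gt hg => ⟨?_, mem_normalizer_of_cj_le ?_⟩⟩
  · have gN := h.HN gt
    have hV : ∀ x ∈ closure ({t, z, v, w} : Set G), x ∈ A →
        α g * α x * (α g)⁻¹ ∈ (closure {pz, pv} : Subgroup S6).map io := fun x hx xA => by
      have nz : pz ∈ closure ({pz, pv} : Set S6) := subset_closure (by simp)
      have nv : pv ∈ closure ({pz, pv} : Set S6) := subset_closure (by simp)
      rw [← c.conj gN (le_normalizer xA)]
      rcases A1 _ (conj_mem_of_mem_normalizer hg hx) (conj_mem_of_mem_normalizer gN xA) with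
        e | e | e | e <;> rw [e]
      · rw [c.one]; exact one_mem _
      · exact ⟨_, nz, az.symm⟩
      · exact ⟨_, nv, av.symm⟩
      · exact ⟨_, mul_mem nz nv, by rw [c.mul' zA vA, az, av, map_mul]⟩
    have gY : α g ∈ Y6 := by
      have k1 := hV z mz zA
      have k2 := hV v mv vA
      rw [az] at k1
      rw [av] at k2
      rcases hp with ⟨rfl, -⟩ | ⟨rfl, -⟩
      exacts [nV1 k1 k2, nV2 k1 k2]
    have m := conj_mem_of_mem_normalizer hg mw
    have ce : ∀ y : G, t * y = y * t → z * y = y * z → v * y = y * v → w * y = y * w →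
        g * w * g⁻¹ * y = y * (g * w * g⁻¹) := fun y a1 a2 a3 a4 => by
      have : closure ({t, z, v, w} : Set G) ≤ centralizer {y} := (closure_le _).2 (by
        rintro _ (rfl | rfl | rfl | rfl) <;> exact mem_centralizer_singleton_iff.2 (by assumption))
      exact mem_centralizer_singleton_iff.1 (this m)
    have e : α (g * w * g⁻¹) = α w := by
      obtain ⟨a, b, d, ha, hb, hd, e⟩ := m8 _ m
      obtain ⟨p, hp'⟩ := gY
      have e0 : p * pw * p⁻¹ = a * b * d := io_inj (by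
        rw [← e, c.conj gN wN, ← hp', aw, map_mul, map_mul, map_inv])
      have e1 : (a * b * d).support.card = pw.support.card := by
        rw [← e0, Equiv.Perm.card_support_conj]
      obtain rfl : d = pw := hd.resolve_left fun k => f.sw (by
        have := congrArg Equiv.Perm.sign e0
        rwa [k, mul_one, ev ha hb, map_mul, map_mul, map_inv, mul_inv_cancel_comm] at this)
      rw [e, aw]
      rcases ha with rfl | rfl <;> rcases hb with rfl | rfl
      · simp
      · exact absurd (by simpa using e1) f.c2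
      · exact absurd (by simpa using e1) f.c1
      · exact absurd e1 f.c3
    exact mul_inv_eq_iff_eq_mul.1 ((h.over2 (ce t rfl zt vt wt)
      ((P2.of_sq ww).conj g) wt (P2.of_sq ww) (ce w wt.symm wz.symm wv.symm rfl) e.symm).resolve_right
        (h.not_cj gt wt ww gY (aw ▸ io_Y _)))
  · have nz : z ∈ closure ({z, v} : Set G) := subset_closure (by simp)
    have nv : v ∈ closure ({z, v} : Set G) := subset_closure (by simp)
    have l : closure ({z, v} : Set G) ≤ closure ({t, z, v, w} : Set G) ⊓ A := (closure_le _).2 (by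
      rintro _ (rfl | rfl)
      exacts [⟨mz, zA⟩, ⟨mv, vA⟩])
    intro x hx
    obtain ⟨y, hy, rfl⟩ := mem_cj'.1 hx
    rcases A1 _ (conj_mem_of_mem_normalizer hg (l hy).1)
      (conj_mem_of_mem_normalizer (h.HN gt) (l hy).2) with e | e | e | e <;> rw [e]
    exacts [one_mem _, nz, nv, mul_mem nz nv]

end H80.A6C
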