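import Mathlib
import Cfsg.Agent.Lib.A6C.FB1
import Cfsg.Agent.Lib.A6C.Bas
import Cfsg.Agent.Lib.A6S.Defs

/-! The frame of `A6S`. -/

set_option autoImplicit false

namespace H80.A6C

open Subgroup H69 H36.SW

variable {G : Type*} [Group G] [Finite G]

variable {A E : Subgroup G} {α : G → X6}

/-- closes identities between automorphisms induced by permutations -/
local macro "iod" : tactic =>
  `(tactic| (simp only [← map_mul, ← map_inv, ← map_pow, io_eq, io_J, map_eq_one_iff io io_inj]; decide +kernel))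

theorem FB.supp {p : S6} (k1 : p * pz * p⁻¹ ∈ [1, pz, pv2, pz * pv2]) (k2 : p * pv1 * p⁻¹ ∈ [1, pz, pv2, pz * pv2]) :
    False := by
  have k3 : ∀ p ∈ [1, pz, pv2, pz * pv2], ∀ q ∈ [1, pz, pv2, pz * pv2],
      p.support = q.support → p = q := by
    have s0 : (1 : S6).support = ∅ := Equiv.Perm.support_one
    have s1 : pz.support = {0, 1, 2, 3} := by decide +kernel
    have s2 : pv2.support = {0, 1, 4, 5} := by decide +kernel
    have s3 : (pz * pv2).support = {2, 3, 4, 5} := by decide +kernel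
    simp only [List.mem_cons, List.not_mem_nil, or_false]
    rintro _ (rfl | rfl | rfl | rfl) _ (rfl | rfl | rfl | rfl) <;>
      first | exact fun _ => rfl | (simp only [s0, s1, s2, s3]; exact fun k => absurd k (by decide))
  have k4 := k3 _ k1 _ k2 (by
    rw [Equiv.Perm.support_conj, Equiv.Perm.support_conj, show pz.support = pv1.support by decide +kernel])
  rw [mul_left_inj, mul_right_inj] at k4
  exact absurd k4 (by decide +kernel)

theorem Cf.fr {F : Lf G} (c : Cf F E A α) (h : H1 J6 E A α F.t) (f1 : F.f ≠ 1) (ff : F.f * F.f = 1) {τ : G}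
    (hτ : (τ = 1 ∧ ∀ x ∈ F.T, x ∈ F.T0) ∨ (F.Dl τ ∧ τ * F.f * τ⁻¹ = F.z * F.f)) :
    ∃ F' : H25.A6.Fr G, F'.E = E := by
  have cv := c.cov
  have v1A := c.v1A
  have v2A := c.v2A
  have a1 := c.av1
  have a2 := c.av2
  have az := c.az
  have au := c.af.resolve_left f1
  have zA : F.z ∈ A := F.hz ▸ mul_mem (mul_mem (mul_mem v1A v2A) v1A) v2A
  have R2 : ∀ r ∈ F.R, r = 1 ∨ r = F.t := fun r hr =>
    h.k2 r (c.hR.le hr).2 (F.Tt (F.RT hr)) (F.T2 (F.RT hr))
  have nrm : ∀ {g}, g * F.t = F.t * g → g ∈ 𝐍(A) := fun k => h.toH0.HN k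
  have ut := F.Tt F.fT
  have uN := nrm ut
  have wT := mul_mem F.zT F.fT
  have wt := F.Tt wT
  have wN := nrm wt
  have uz := F.Tz F.fT
  have aw : α (F.z * F.f) = io (pz * pu) := by rw [cv.mul _ (le_normalizer zA) _ uN, az, au, map_mul]
  have ww : F.z * F.f * (F.z * F.f) = 1 := by rw [mul_assoc, ← mul_assoc F.f, uz, mul_assoc, ff, mul_one, F.zz]
  have τT : τ ∈ F.T := hτ.elim (fun k => k.1 ▸ one_mem _) fun k => k.1.τT
  have T0 : closure ({F.t, F.v1, F.v2, F.f, F.z * F.f} : Set G) = F.T0 := by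
    refine le_antisymm ((closure_le _).2 ?_) (sup_le (fun r hr => ?_) (closure_mono ?_))
    · rintro _ (rfl | rfl | rfl | rfl | rfl)
      exacts [F.R0 F.tR, F.D0 F.v1D, F.D0 F.v2D, F.f0, mul_mem (F.D0 F.zD) F.f0]
    · rcases R2 r hr with rfl | rfl
      exacts [one_mem _, subset_closure (by simp)]
    · rintro _ (rfl | rfl | rfl) <;> simp
  have T1 : closure ({F.t, F.v1, F.v2, F.f, F.z * F.f, τ} : Set G) = F.T := by
    have l : F.T0 ≤ closure ({F.t, F.v1, F.v2, F.f, F.z * F.f, τ} : Set G) :=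
      T0 ▸ closure_mono (by rintro _ (rfl | rfl | rfl | rfl | rfl) <;> simp)
    refine le_antisymm ((closure_le _).2 ?_) fun x hx => ?_
    · rintro _ (rfl | rfl | rfl | rfl | rfl | rfl)
      exacts [F.tT, F.v1T, F.v2T, F.fT, wT, τT]
    · rcases hτ with k | k
      · exact l (k.2 x hx)
      · rcases F.memT τT k.1.τ0 hx with e | ⟨y, hy, rfl⟩
        exacts [l e, mul_mem (subset_closure (by simp)) (l hy)]
  obtain ⟨b1, b1A, e1, b11⟩ := cv.lifti (j := io (Equiv.swap 0 2 * Equiv.swap 4 5)) (io_J.2 (by decide +kernel))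
    (by iod)
  obtain ⟨b2, b2A, e2, b22⟩ := cv.lifti (j := io (Equiv.swap 0 4 * Equiv.swap 1 5)) (io_J.2 (by decide +kernel))
    (by iod)
  have y1A := mul_mem v2A b1A
  have y2A := mul_mem v1A b2A
  have ay1 : α (F.v2 * b1) = io py1 := by rw [cv.mul' v2A b1A, a2, e1]; iod
  have ay2 : α (F.v1 * b2) = io py2 := by rw [cv.mul' v1A b2A, a1, e2]; iod
  have w1 : F.z * F.f * F.v1 = F.v1 * (F.z * F.f) := Commute.mul_left F.zv1 F.fv1
  have w2 : F.z * F.f * F.v2 = F.v2 * (F.z * F.f) := Commute.mul_left F.zv2 F.fv2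
  have p1 := P2.of_sq F.v11
  have p2 := P2.of_sq F.v22
  have pz' := P2.of_sq F.zz
  have j1 : io pu ∉ J6 := by rw [io_J]; decide +kernel
  have j2 : io (pz * pu) ∉ J6 := by rw [io_J]; decide +kernel
  obtain ⟨-, N1⟩ := h.nW zA v1A F.zz F.v11 ff ut az a1 au (.inl ⟨rfl, rfl⟩)
  obtain ⟨A2, N2⟩ := h.nW zA v2A F.zz F.v22 ww wt az a2 aw (.inr ⟨rfl, rfl⟩)
  have nJ' : ∀ x, α x ∉ J6 → x ∉ closure ({F.t, F.v1, F.v2} : Set G) := fun x hx k => by
    have : closure ({F.t, F.v1, F.v2} : Set G) ≤ cv.pre J6 := (closure_le _).2 (by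
      rintro _ (rfl | rfl | rfl)
      · exact cv.mem_pre.2 ⟨nrm rfl, cv.cen h.tA ▸ one_mem _⟩
      · exact cv.mem_pre.2 ⟨le_normalizer v1A, cv.mem _ v1A⟩
      · exact cv.mem_pre.2 ⟨le_normalizer v2A, cv.mem _ v2A⟩)
    exact hx (cv.mem_pre.1 (this k)).2
  have cjY : ∀ {g x : G}, g * F.t = F.t * g → x * F.t = F.t * x → g * x * g⁻¹ ∈ F.T0 → α x ∈ Y6 :=
    fun {g x} hg hx k => by
      have := (c.h0 _ (F.T0T k)).1 k
      rw [cv.conj (nrm hg) (nrm hx)] at this
      simpa [mul_assoc] using nY.conj_mem' _ this (α g)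
  refine ⟨{
    E := E, t := F.t, z := F.z, v1 := F.v1, v2 := F.v2, u1 := F.f, u2 := F.z * F.f, y1 := F.v2 * b1
    y2 := F.v1 * b2, dl := τ
    En := h.En, Es := h.Es, top := h.top, v1E := h.AE v1A, v2E := h.AE v2A, y1E := h.AE y1A
    y2E := h.AE y2A, tt := h.tt, zz := F.zz, v11 := F.v11, v22 := F.v22, u11 := ff, u22 := ww
    hz := F.hz, hz' := F.hz', z1 := F.z1
    tv1 := (h.tA _ v1A).symm, tv2 := (h.tA _ v2A).symm, tu1 := ut.symm, tu2 := wt.symm
    u1v1 := F.fv1, u1v2 := F.fv2, u2v1 := w1, u2v2 := w2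
    tD := ?_, hu := .inr ⟨rfl, (F.bs_zz _).symm, nJ' _ (au ▸ j1), nJ' _ (aw ▸ j2)⟩
    hu1 := f1, dlt := F.Tt τT
    hdl := hτ.imp And.left fun k => ⟨k.1.τ1, k.1.τ2, k.2, ?_, R2 _ k.1.ττ⟩
    syl := T1 ▸ F.syl
    y13 := lift_ord cv v2A b1A F.v22 b11 (by rw [a2, e1]; iod)
    y23 := lift_ord cv v1A b2A F.v11 b22 (by rw [a1, e2]; iod)
    y1t := h.tA _ y1A, y2t := h.tA _ y2A
    y1u := (Commute.mul_right F.fv2 (cv.comm_lift uN b1A (P2.of_sq b11) (by rw [au, e1]; iod))).symm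
    y2u := (Commute.mul_right w1 (cv.comm_lift wN b2A (P2.of_sq b22) (by rw [aw, e2]; iod))).symm
    y1z := cv.conj_eq (le_normalizer y1A) zA v1A pz' p1 (by rw [ay1, az, a1]; iod)
    y2z := cv.conj_eq (le_normalizer y2A) zA v2A pz' p2 (by rw [ay2, az, a2]; iod)
    y1v := cv.conj_eq (le_normalizer y1A) v1A (mul_mem zA v1A) p1 (F.T2 (mul_mem F.zT F.v1T))
      (by rw [cv.mul' zA v1A, ay1, az, a1]; iod)
    y2v := cv.conj_eq (le_normalizer y2A) v2A (mul_mem zA v2A) p2 (F.T2 (mul_mem F.zT F.v2T))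
      (by rw [cv.mul' zA v2A, ay2, az, a2]; iod)
    v2y := by rw [← mul_assoc, F.v22, one_mul, mul_inv_rev, F.bs_bi, inv_eq_of_mul_eq_one_right b11]
    v1y := by rw [← mul_assoc, F.v11, one_mul, mul_inv_rev, F.bs_ai, inv_eq_of_mul_eq_one_right b22]
    nW1 := N1, nW2 := N2, W12 := fun hd g gt e => ?_
    nd := fun hd g gt x hx k => ?_
    zs := h.zs }, rfl⟩
  · intro k
    have l : closure ({F.v1, F.v2, F.f, F.z * F.f} : Set G) ≤ A ⊔ zpowers F.f := (closure_le _).2 (by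
      rintro _ (rfl | rfl | rfl | rfl)
      · exact mem_sup_left v1A
      · exact mem_sup_left v2A
      · exact mem_sup_right (mem_zpowers _)
      · exact mul_mem_sup zA (mem_zpowers _))
    rcases (H25.A7.mem_adj uN (ff ▸ one_mem A)).1 (l k) with e | e
    · exact h.toH0.tnA e
    · have := cv.mem _ e
      rw [cv.cen_mul (inv_mem uN) h.tA, cv.inv uN, au] at this
      exact j1 (by simpa using this)
  · rw [← conj_mul, k.2, F.Tz τT, mul_inv_cancel_right, F.bs_zz]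
  · have gN := nrm gt
    have hT := (hτ.resolve_right fun k => k.1.τ0 (hd ▸ one_mem _)).2
    obtain ⟨m, om, pm⟩ := exists_odd_P2 g
    have mt : g ^ m * F.t = F.t * g ^ m := (Commute.pow_left gt m).eq
    obtain ⟨k, hk, lk⟩ := F.syl.exists_cj_le pm.zpowers (zpowers_le.2 (mem_centralizer_singleton_iff.2 mt))
    obtain ⟨p, hp⟩ : α g ∈ Y6 := oddY om (cv.pow gN m ▸
      cjY (mem_centralizer_singleton_iff.1 hk) mt (hT _ (lk (cj_mem k (mem_zpowers _)))))
    have k : ∀ x ∈ closure ({F.t, F.z, F.v1, F.f} : Set G), x ∈ A → ∀ q, α x = io q →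
        p * q * p⁻¹ ∈ [1, pz, pv2, pz * pv2] := fun x hx xA q hq => by
      have e0 := cv.conj gN (le_normalizer xA)
      rw [← hp, hq, ← map_inv, ← map_mul, ← map_mul] at e0
      rcases A2 _ (e ▸ cj_mem g hx) (conj_mem_of_mem_normalizer gN xA) with q | q | q | q <;> rw [q] at e0
      · rw [cv.one, ← map_one io, io_eq] at e0; simp [← e0]
      · rw [az, io_eq] at e0; simp [← e0]
      · rw [a2, io_eq] at e0; simp [← e0]
      · rw [cv.mul' zA v2A, az, a2, ← map_mul, io_eq] at e0; simp [← e0]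
    exact FB.supp (k _ (subset_closure (by simp)) zA _ az) (k _ (subset_closure (by simp)) v1A _ a1)
  · have d := (hτ.resolve_left fun k => hd k.1).1
    rw [T0] at hx k
    have m := mul_mem τT (F.T0T hx)
    exact d.τ0 ((mul_mem_cancel_right hx).1 ((c.h0 _ m).2 (cjY gt (F.Tt m) k)))

end H80.A6C
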