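import Mathlib
import Cfsg.Agent.Lib.A6C.Inn
import Cfsg.Agent.Lib.A6C.SR

/-! The case `A₅`. -/

set_option autoImplicit false

namespace H80.A6C

open Subgroup H69 H36.SW

variable {G : Type*} [Group G] [Finite G] {A E : Subgroup G} {α : G → S5} {t : G}

namespace N5

local notation "qz" => (Equiv.swap 0 1 * Equiv.swap 2 3 : S5)
local notation "qv" => (Equiv.swap 0 2 * Equiv.swap 1 3 : S5)

theorem memJ {p : S5} (h : Equiv.Perm.sign p = 1) : p ∈ J5 := Equiv.Perm.mem_alternatingGroup.2 h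

theorem q1 : ∀ x : S5, x * x = qz → ∀ p : S5, p * x = x * p → p * p = 1 → p = 1 ∨ p = qz := by
  decide +kernel

theorem q2 : ∀ x : S5, x * qz = qz * x → x * qv = qv * x → x = 1 ∨ x = qz ∨ x = qv ∨ x = qz * qv := by
  decide +kernel

theorem q3 : ∀ x : S5, Equiv.Perm.sign x = 1 → x * x = 1 → x ≠ 1 →
    ∃ j : S5, Equiv.Perm.sign j = 1 ∧ j * x * j⁻¹ = qz := by
  decide +kernel

theorem q4 : ∀ x : S5, Equiv.Perm.sign x ≠ 1 → x * x = 1 →
    ∃ n : S5, Equiv.Perm.sign n = 1 ∧ n * x * n⁻¹ ≠ x ∧ x * (n * x * n⁻¹) * (x * (n * x * n⁻¹)) = 1 := by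
  decide +kernel

theorem syl : IsSylowIn 2 (centralizer ({qz} : Set S5)) ⊤ := by
  have : Fact (Nat.Prime 2) := ⟨Nat.prime_two⟩
  have h : Nat.card (centralizer ({qz} : Set S5)) = 8 := by
    rw [Nat.card_congr (Equiv.subtypeEquivRight (q := fun x : S5 => x * qz = qz * x)
      fun x => mem_centralizer_singleton_iff), Nat.card_eq_fintype_card, Fintype.card_subtype]
    decide +kernel
  refine isSylowIn_of_not_dvd_relIndex (IsPGroup.of_card (n := 3) h) le_top ?_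
  have := (centralizer ({qz} : Set S5)).card_mul_index
  rw [h, Nat.card_perm, Nat.card_fin, show Nat.factorial 5 = 120 from rfl] at this
  rw [relIndex_top_right]
  omega

theorem exT (h : H0 J5 E A α t) : ∃ T, IsSylowIn 2 T (centralizer {t}) ∧ (∀ x ∈ T, α x * qz = qz * α x) ∧
    ∀ a ∈ A, P2 a → α a * qz = qz * α a → a ∈ T := by
  have : Fact (Nat.Prime 2) := ⟨Nat.prime_two⟩
  have c := h.cov
  have HN : centralizer {t} ≤ 𝐍(A) := fun g hg => h.HN (mem_centralizer_singleton_iff.1 hg)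
  have AH : A ≤ centralizer {t} := fun a ha => mem_centralizer_singleton_iff.2 (h.tA a ha)
  obtain ⟨Q, Qs, mQ⟩ : ∃ Q : Subgroup S5, IsSylowIn 2 Q ⊤ ∧ ∀ x, x ∈ Q ↔ x * qz = qz * x :=
    ⟨_, syl, fun x => mem_centralizer_singleton_iff⟩
  simp only [← mQ]
  obtain ⟨T, hT, hQ⟩ : ∃ T, IsSylowIn 2 T (centralizer {t}) ∧ ∀ x ∈ T, α x ∈ Q := by
    obtain ⟨T, hT⟩ := exists_isSylowIn 2 (centralizer ({t} : Set G))
    obtain ⟨j, -, hj⟩ := Qs.exists_cj_le (c.isP_im hT.isP) le_top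
    obtain ⟨j, jJ, hj⟩ : ∃ j ∈ J5, c.im T ^ᶜ j ≤ Q := by
      by_cases e : j ∈ J5
      · exact ⟨j, e, hj⟩
      · refine ⟨Equiv.swap 0 1 * j, ?_, ?_⟩
        · rw [Equiv.Perm.mem_alternatingGroup] at e ⊢
          rw [map_mul, (Int.units_eq_one_or _).resolve_left e]
          decide
        · rw [← cj_cj]
          exact cj_le_of_mem hj ((mQ _).2 (by decide))
    obtain ⟨a, ha, rfl⟩ := c.onto j jJ
    refine ⟨T ^ᶜ a, hT.cj_of_mem (AH ha), fun x hx => ?_⟩
    obtain ⟨y, hy, rfl⟩ := mem_cj'.1 hx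
    rw [c.conj (le_normalizer ha) (HN (hT.le hy))]
    exact hj (cj_mem _ (c.mem_im.2 ⟨y, hy, HN (hT.le hy), rfl⟩))
  have TN : T ≤ 𝐍(A) := hT.le.trans HN
  obtain ⟨P, hP, -⟩ := c.exists_lift (Y := Q ⊓ J5) inf_le_right (Qs.isP.to_le inf_le_left)
  refine ⟨T, hT, hQ, fun a ha a2 e => hT.le_of_le_normalizer (isP_of_P2 fun x hx => ((hP x).1 hx).2.1)
    (fun x hx => AH ((hP x).1 hx).1) (fun x hx => mem_normalizer_fintype fun y hy => ?_)
    ((hP a).2 ⟨ha, a2, e, c.mem a ha⟩)⟩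
  obtain ⟨h1, h2, h3⟩ := (hP y).1 hy
  have h4 := (mem_normalizer_iff.1 (TN hx) y).1 h1
  refine (hP _).2 ⟨h4, h2.conj x, ?_, c.mem _ h4⟩
  rw [c.conj (TN hx) (le_normalizer h1)]
  exact Q.mul_mem (Q.mul_mem (hQ x hx) h3.1) (Q.inv_mem (hQ x hx))

end N5

open N5

local notation "qz" => (Equiv.swap 0 1 * Equiv.swap 2 3 : S5)
local notation "qv" => (Equiv.swap 0 2 * Equiv.swap 1 3 : S5)

theorem jf5 : JF J5 := by
  refine ⟨inferInstance, ⟨qz, memJ (by decide), by decide, by decide⟩, fun x _ => memJ ?_, fun x y _ _ _ => ?_,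
    fun x hx x2 => ?_⟩
  · rw [map_mul, Int.units_mul_self]
  · simp only [Equiv.Perm.mem_alternatingGroup, map_mul]
    rcases Int.units_eq_one_or (Equiv.Perm.sign x) with e | e <;>
      rcases Int.units_eq_one_or (Equiv.Perm.sign y) with e' | e' <;> simp [e, e']
  · obtain ⟨n, h1, h2⟩ := q4 x (fun e => hx (memJ e)) x2
    exact ⟨n, memJ h1, h2⟩

theorem H1.five (h : H1 J5 E A α t) : Cfsg.SectionalPRankLE 2 4 G := by
  have : Fact (Nat.Prime 2) := ⟨Nat.prime_two⟩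
  have c := h.cov
  obtain ⟨T, hT, -, mT⟩ := exT h.toH0
  obtain ⟨z, zA, az, zz⟩ := c.lifti (j := qz) (memJ (by decide)) (by decide)
  obtain ⟨v, vA, av, vv⟩ := c.lifti (j := qv) (memJ (by decide)) (by decide)
  have zT := mT z zA (.of_sq zz) (by rw [az])
  have vT := mT v vA (.of_sq vv) (by rw [av]; decide)
  have tT : t ∈ T := H25.A7.mem_of_P2_norm hT (mem_centralizer_singleton_iff.2 rfl) (.of_sq h.tt)
    (centralizer_le_normalizer _ fun x hx => mem_centralizer_singleton_iff.1 (hT.le hx))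
  have zv : z * v = v * z := c.comm_lift (le_normalizer zA) vA (.of_sq vv) (by rw [av, az]; decide)
  obtain ⟨S, hS, TS⟩ := exists_isSylowIn_le hT.isP (le_top : T ≤ ⊤)
  have tA := h.toH0.tnA
  refine sr8' hS (TS tT) (TS zT) (TS vT) h.tt zz vv (h.tA z zA).symm (h.tA v vA).symm zv h.t1
    (fun e => absurd (az.symm.trans (e ▸ c.one)) (by decide)) (fun e => tA (e ▸ zA))
    (fun e => absurd (av.symm.trans (e ▸ c.one)) (by decide)) (fun e => tA (e ▸ vA))
    (fun e => absurd (av.symm.trans (e ▸ az)) (by decide))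
    (fun e => tA ((mul_mem_cancel_right zA).1 (e ▸ vA))) fun x hx xt xz xv => ?_
  have xN := h.toH0.HN xt
  have mt : t ∈ closure ({t, z, v} : Set G) := subset_closure (by simp)
  have mz : z ∈ closure ({t, z, v} : Set G) := subset_closure (by simp)
  have mv : v ∈ closure ({t, z, v} : Set G) := subset_closure (by simp)
  have key : ∀ a ∈ A, P2 a → α a = α x → a ∈ closure ({t, z, v} : Set G) → x ∈ closure ({t, z, v} : Set G) :=
    fun a ha a2 e m => by
      rcases h.over2' xt (.of_mem hS.isP hx) ha a2 e with e | e <;> rw [e]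
      exacts [m, mul_mem m mt]
  rcases q2 (α x) (az ▸ c.comm xN (le_normalizer zA) xz) (av ▸ c.comm xN (le_normalizer vA) xv) with e | e | e | e
  · exact key 1 (one_mem _) (.of_sq (mul_one 1)) (c.one.trans e.symm) (one_mem _)
  · exact key z zA (.of_sq zz) (az.trans e.symm) mz
  · exact key v vA (.of_sq vv) (av.trans e.symm) mv
  · exact key (z * v) (mul_mem zA vA) ((P2.of_sq zz).mul (.of_sq vv) zv) (by rw [c.mul' zA vA, az, av, e])
      (mul_mem mz mv)

theorem H0.five_sq (h : H0 J5 E A α t) {r : G} (hr : r ∈ 𝐂(A)) (r2 : r * r = t) : False := by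
  have : Fact (Nat.Prime 2) := ⟨Nat.prime_two⟩
  have c := h.cov
  obtain ⟨T, hT, hQ, mT⟩ := exT h
  have Tt : ∀ x ∈ T, x * t = t * x := fun x hx => mem_centralizer_singleton_iff.1 (hT.le hx)
  have TN : ∀ x ∈ T, x ∈ 𝐍(A) := fun x hx => h.HN (Tt x hx)
  obtain ⟨r, rT, hr, r2⟩ := h.rT hT hr r2
  obtain ⟨z, zA, az, zz⟩ := c.lifti (j := qz) (memJ (by decide)) (by decide)
  obtain ⟨v, vA, av, vv⟩ := c.lifti (j := qv) (memJ (by decide)) (by decide)
  have zT := mT z zA (.of_sq zz) (by rw [az])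
  have vT := mT v vA (.of_sq vv) (by rw [av]; decide)
  have Tz : ∀ x ∈ T, x * z = z * x := fun x hx => c.comm_lift (TN x hx) zA (.of_sq zz) (az ▸ hQ x hx)
  obtain ⟨g, hg⟩ := h.zt jf5 hr r2 zA zz fun x hx x2 x1 => by
    obtain ⟨j, h1, h2⟩ := q3 x (Equiv.Perm.mem_alternatingGroup.1 hx) x2 x1
    exact ⟨j, memJ h1, h2.trans az.symm⟩
  obtain ⟨n, hn, e⟩ : ∃ n ∈ 𝐍(T), α (n * t * n⁻¹) = qz := by
    rcases hg with e | e
    · obtain ⟨n, hn, en⟩ := H25.A7.burnside hT e fun x hx => mem_centralizer_singleton_iff.2 (Tz x hx)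
      exact ⟨n, hn, en ▸ az⟩
    · obtain ⟨n, hn, en⟩ := H25.A7.burnside hT e fun x hx => mem_centralizer_singleton_iff.2
        (Commute.mul_right (Tt x hx) (Tz x hx))
      exact ⟨n, hn, by rw [en, c.cen_mul (le_normalizer zA) h.tA, az]⟩
  have m : ∀ {x}, x ∈ T → n * x * n⁻¹ ∈ T := conj_mem_of_mem_normalizer hn
  have x2 : α (n * r * n⁻¹) * α (n * r * n⁻¹) = qz := by
    rw [← c.mul _ (TN _ (m rT)) _ (TN _ (m rT)), conj_mul, r2, e]
  have v2 : n * v * n⁻¹ * (n * v * n⁻¹) = 1 := by rw [conj_mul, vv, mul_one, mul_inv_cancel]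
  have cen : ∀ y ∈ T, Commute y (n * v * n⁻¹) := by
    intro y hy
    rcases q1 _ x2 _ (c.comm (TN _ (m vT)) (TN _ (m rT)) (by rw [conj_mul, conj_mul, hr v vA]))
      (c.sq (TN _ (m vT)) v2) with e | e
    · rcases h.eqt (Tt _ (m vT)) v2 e with e | e <;> rw [e]
      exacts [Commute.one_right y, Tt y hy]
    · have zi : z⁻¹ = z := inv_eq_of_mul_eq_one_left zz
      rcases h.eqt (Tt _ (mul_mem (m vT) zT))
        (by rw [mul_assoc, ← mul_assoc z, ← Tz _ (m vT), mul_assoc _ z z, zz, mul_one, v2])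
        (by rw [c.mul _ (TN _ (m vT)) _ (TN _ zT), e, az]; decide) with e | e <;> rw [eq_mul_inv_of_mul_eq e, zi]
      exacts [Commute.mul_right (Commute.one_right y) (Tz y hy), Commute.mul_right (Tt y hy) (Tz y hy)]
  have xv : v * (n * r * n⁻¹) = n * r * n⁻¹ * v := by
    have := (cen _ (m (m rT))).eq
    rw [conj_mul, conj_mul] at this
    exact ((MulAut.conj n).injective this).symm
  exact absurd (q1 _ x2 qv (av ▸ c.comm (TN _ vT) (TN _ (m rT)) xv) (by decide)) (by decide)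

theorem H0.five (h : H0 J5 E A α t) : Cfsg.SectionalPRankLE 2 4 G :=
  h.h1.elim (fun ⟨_, hr, r2⟩ => (h.five_sq hr r2).elim) H1.five

end H80.A6C
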